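import Cfsg.Agent.H242.KS.OddIdx
import Cfsg.Agent.H581.KS.B1

/-!
# S4577, B5 and B6 (helper242): the 16-version

* `B5 : Cfsg.Agent.H613.KS.Props.PB5` : no 2-layers;
* `B6 : Cfsg.Agent.H613.KS.Props.PB6` : normal subgroups of odd index.
-/

set_option autoImplicit false

namespace Cfsg.Agent.H242.KS

open Cfsg Cfsg.Agent.H613.KS

universe u

theorem b1S : B1S.{u} := fun hM _ hB _ hD h8 N _ b hb hst hcov hDN =>
  Cfsg.Agent.H581.KS.B1 hM hB hD h8 N b hb hst hcov hDN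

/-- B5: no 2-layers. -/
theorem B5 : Cfsg.Agent.H613.KS.Props.PB5.{u} := by
  intro G _ _ M hM B hB D hD h8 L H _ _ hLH hDL h2 hst
  exact B5_of hM hB hD h8 b1S L H hLH hDL h2 hst

/-- B6: normal subgroups of odd index. -/
theorem B6 : Cfsg.Agent.H613.KS.Props.PB6.{u} := by
  intro G _ _ M hM B hB D hD h8 N _ hodd hz b hb hst hcov
  exact B6_of hM hB hD h8 b1S N hodd hz b hb hst hcov

end Cfsg.Agent.H242.KS
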